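import Cfsg.Agent.Lib.Helper9.AschU.Defs

set_option autoImplicit false

/-! # Unitary groups: base API (piece B0, written by helper1) -/

namespace Cfsg.Agent.Lib.Helper9.AschU

open Cfsg Cfsg.Geo Matrix Cfsg.Agent.Lib.Helper13 Cfsg.Agent.Lib.Helper13.Asch
  Cfsg.Agent.Lib.Helper5.SUAsch
open scoped Kronecker MatrixGroups

variable {F : Type*} [Field F] [Fintype F] {n q : ℕ}

theorem hermForm_mulVec_left (hF : Fintype.card F = q ^ 2) (X : Matrix (Fin n) (Fin n) F)
    (u v : Fin n → F) : hermForm n F q (X *ᵥ u) v = hermForm n F q u (adj q X *ᵥ v) := by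
  simp only [hermForm, Matrix.mulVec, dotProduct, adj, sum_pow_q hF, mul_pow, pow_q_pow_q hF,
    Finset.sum_mul, Finset.mul_sum]
  rw [Finset.sum_comm]
  apply Finset.sum_congr rfl
  intro j _
  apply Finset.sum_congr rfl
  intro i _
  ring

theorem adj_mul (hF : Fintype.card F = q ^ 2) {ι : Type} [Fintype ι] (X Y : Matrix ι ι F) :
    adj q (X * Y) = adj q Y * adj q X := by
  ext i j
  simp only [adj, Matrix.mul_apply, sum_pow_q hF, mul_pow]
  apply Finset.sum_congr rfl
  intro k _
  ring

theorem adj_add (hF : Fintype.card F = q ^ 2) {ι : Type} (X Y : Matrix ι ι F) :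
    adj q (X + Y) = adj q X + adj q Y := by
  ext i j
  simp only [adj, Matrix.add_apply, add_pow_q hF]

omit [Fintype F] in
theorem adj_smul {ι : Type} (c : F) (X : Matrix ι ι F) : adj q (c • X) = c ^ q • adj q X := by
  ext i j
  simp only [adj, Matrix.smul_apply, smul_eq_mul, mul_pow]

theorem adj_one (hF : Fintype.card F = q ^ 2) {ι : Type} [DecidableEq ι] :
    adj q (1 : Matrix ι ι F) = 1 := by
  have hq := two_le_of_card_sq hF
  ext i j
  simp only [adj, Matrix.one_apply]
  by_cases h : i = j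
  · subst h; simp
  · rw [if_neg h, if_neg (Ne.symm h), zero_pow (by omega)]

theorem adj_adj (hF : Fintype.card F = q ^ 2) {ι : Type} (X : Matrix ι ι F) :
    adj q (adj q X) = X := by
  ext i j
  simp only [adj, pow_q_pow_q hF]

theorem mem_GU_iff_adj (hF : Fintype.card F = q ^ 2) (g : GL (Fin n) F) :
    g ∈ GU n F q ↔ adj q (g : Matrix (Fin n) (Fin n) F) * (g : Matrix (Fin n) (Fin n) F) = 1 := by
  have key : ∀ u v : Fin n → F, hermForm n F q ((g : Matrix (Fin n) (Fin n) F) *ᵥ u)
      ((g : Matrix (Fin n) (Fin n) F) *ᵥ v) = hermForm n F q u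
        ((adj q (g : Matrix (Fin n) (Fin n) F) * (g : Matrix (Fin n) (Fin n) F)) *ᵥ v) := by
    intro u v
    rw [hermForm_mulVec_left hF, Matrix.mulVec_mulVec]
  constructor
  · intro hg
    have hg' : ∀ u v : Fin n → F, hermForm n F q ((g : Matrix (Fin n) (Fin n) F) *ᵥ u)
      ((g : Matrix (Fin n) (Fin n) F) *ᵥ v) = hermForm n F q u v := hg
    have hv : ∀ v : Fin n → F,
        (adj q (g : Matrix (Fin n) (Fin n) F) * (g : Matrix (Fin n) (Fin n) F)) *ᵥ v = v := by
      intro v
      ext i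
      have h1 := (key (Pi.single i 1) v).symm.trans (hg' (Pi.single i 1) v)
      rw [hermForm_single_left, hermForm_single_left] at h1
      have h2 := congrArg (fun x => x ^ q) h1
      simp only [pow_q_pow_q hF] at h2
      exact h2
    ext i j
    have := congrFun (hv (Pi.single j 1)) i
    simpa [Matrix.mulVec_single_one, Matrix.one_apply, Pi.single_apply] using this
  · intro h u v
    have := key u v
    rw [h, Matrix.one_mulVec] at this
    exact this

theorem adj_eq_inv (hF : Fintype.card F = q ^ 2) {g : GL (Fin n) F} (hg : g ∈ GU n F q) :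
    adj q (g : Matrix (Fin n) (Fin n) F) = ((g⁻¹ : GL (Fin n) F) : Matrix (Fin n) (Fin n) F) := by
  have h1 := (mem_GU_iff_adj hF g).1 hg
  have h2 : (g : Matrix (Fin n) (Fin n) F) * ((g⁻¹ : GL (Fin n) F) : Matrix (Fin n) (Fin n) F) = 1 := by
    rw [← Units.val_mul, mul_inv_cancel, Units.val_one]
  calc adj q (g : Matrix (Fin n) (Fin n) F)
      = adj q (g : Matrix (Fin n) (Fin n) F) * ((g : Matrix (Fin n) (Fin n) F) *
          ((g⁻¹ : GL (Fin n) F) : Matrix (Fin n) (Fin n) F)) := by rw [h2, mul_one]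
    _ = ((g⁻¹ : GL (Fin n) F) : Matrix (Fin n) (Fin n) F) := by rw [← mul_assoc, h1, one_mul]

theorem starClosed_env (hF : Fintype.card F = q ^ 2) {N : Subgroup (GL (Fin n) F)}
    (hN : N ≤ GU n F q) : StarClosed q (env N) := by
  intro x hx
  unfold env at hx ⊢
  induction hx using Algebra.adjoin_induction with
  | mem x hx =>
    obtain ⟨g, hg, rfl⟩ := hx
    simp only
    rw [adj_eq_inv hF (hN hg)]
    exact Algebra.subset_adjoin ⟨g⁻¹, inv_mem hg, rfl⟩
  | algebraMap r =>
    rw [Algebra.algebraMap_eq_smul_one, adj_smul, adj_one hF, ← Algebra.algebraMap_eq_smul_one]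
    exact Subalgebra.algebraMap_mem _ _
  | add x y _ _ hx hy =>
    rw [adj_add hF]
    exact add_mem hx hy
  | mul x y _ _ hx hy =>
    rw [adj_mul hF]
    exact mul_mem hy hx

theorem starClosed_center (hF : Fintype.card F = q ^ 2)
    {A : Subalgebra F (Matrix (Fin n) (Fin n) F)} (hA : StarClosed q A) :
    StarClosed q (A ⊓ Subalgebra.centralizer F (A : Set (Matrix (Fin n) (Fin n) F))) := by
  intro z hz
  obtain ⟨hzA, hzC⟩ := Algebra.mem_inf.1 hz
  rw [Subalgebra.mem_centralizer_iff] at hzC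
  refine Algebra.mem_inf.2 ⟨hA z hzA, ?_⟩
  rw [Subalgebra.mem_centralizer_iff]
  intro a ha
  have h1 := hzC (adj q a) (hA a ha)
  have h2 := congrArg (adj q) h1
  rw [adj_mul hF, adj_mul hF, adj_adj hF] at h2
  exact h2.symm

theorem StarClosed.isAdjointClosedFor (hF : Fintype.card F = q ^ 2)
    {K : Subalgebra F (Matrix (Fin n) (Fin n) F)} (hK : StarClosed q K) :
    IsAdjointClosedFor (hermForm n F q) K := by
  intro k hk
  exact ⟨adj q k, hK k hk, fun u v => hermForm_mulVec_left hF k u v⟩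

theorem hermForm_nondegenerate (hF : Fintype.card F = q ^ 2) :
    IsNondegenerateForm (hermForm n F q) := by
  intro v hv
  obtain ⟨i, hi⟩ : ∃ i, v i ≠ 0 := by
    by_contra h
    push Not at h
    exact hv (funext h)
  constructor
  · refine ⟨Pi.single i 1, ?_⟩
    rw [hermForm_single_left]
    exact pow_ne_zero _ hi
  · refine ⟨Pi.single i 1, ?_⟩
    rw [← hermForm_swap hF, hermForm_single_left, pow_q_pow_q hF]
    exact hi

theorem isUnitaryFormPow_hermForm (hF : Fintype.card F = q ^ 2) :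
    IsUnitaryFormPow q (hermForm n F q) where
  add_left := fun x y v => hermForm_add_left x y v
  smul_left := fun c x v => hermForm_smul_left c x v
  herm := fun v w => (hermForm_swap hF w v).symm
  nondegenerate := hermForm_nondegenerate hF

theorem norm_surjective (hF : Fintype.card F = q ^ 2) (c : F) (hc : c ^ q = c) :
    ∃ l : F, l ^ (q + 1) = c := by
  classical
  have hq := two_le_of_card_sq hF
  by_cases hc0 : c = 0
  · exact ⟨0, by rw [hc0, zero_pow (by omega)]⟩
  obtain ⟨g, hg⟩ := IsCyclic.exists_generator (α := Fˣ)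
  have hord : orderOf g = q ^ 2 - 1 := by
    rw [orderOf_eq_card_of_forall_mem_zpowers hg, Nat.card_eq_fintype_card, Fintype.card_units, hF]
  obtain ⟨k, hk⟩ := (mem_powers_iff_mem_zpowers.2 (hg (Units.mk0 c hc0)))
  have h1 : (Units.mk0 c hc0) ^ (q - 1) = 1 := by
    apply Units.ext
    rw [Units.val_pow_eq_pow_val, Units.val_mk0, Units.val_one]
    have h2 : c ^ (q - 1) * c = c := by
      rw [← pow_succ, Nat.sub_add_cancel (by omega), hc]
    exact mul_right_cancel₀ hc0 (h2.trans (one_mul c).symm)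
  simp only at hk
  rw [← hk, ← pow_mul, ← orderOf_dvd_iff_pow_eq_one, hord] at h1
  have h3 : q ^ 2 - 1 = (q + 1) * (q - 1) := by
    obtain ⟨m, rfl⟩ : ∃ m, q = m + 1 := ⟨q - 1, by omega⟩
    simp only [Nat.add_sub_cancel]
    have : (m + 1) ^ 2 = (m + 1 + 1) * m + 1 := by ring
    omega
  rw [h3] at h1
  have h4 : (q + 1) ∣ k := Nat.dvd_of_mul_dvd_mul_right (by omega) h1
  obtain ⟨m, rfl⟩ := h4
  refine ⟨((g ^ m : Fˣ) : F), ?_⟩
  have := congrArg (fun u : Fˣ => (u : F)) hk
  simp only [Units.val_mk0] at this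
  rw [← this, ← Units.val_pow_eq_pow_val, ← pow_mul, mul_comm m]

theorem exists_skew (hF : Fintype.card F = q ^ 2) : ∃ z : F, z ≠ 0 ∧ z + z ^ q = 0 := by
  obtain ⟨t, ht⟩ : ∃ t : F, t ^ q ≠ t := by
    by_contra h
    push Not at h
    apply frobQ_ne_id hF
    ext x
    simpa using h x
  refine ⟨t - t ^ q, sub_ne_zero.2 (Ne.symm ht), ?_⟩
  rw [sub_pow_q hF, pow_q_pow_q hF]
  ring

theorem exists_fixedSubfield (hF : Fintype.card F = q ^ 2) :
    ∃ F₀ : Subfield F, (∀ x, x ∈ F₀ ↔ x ^ q = x) ∧ Fintype.card F = Nat.card F₀ ^ 2 := by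
  classical
  have hinv : Function.Involutive (frobQ hF) := fun x => by simp [pow_q_pow_q hF]
  let σ : F ≃+* F := RingEquiv.ofBijective (frobQ hF) hinv.bijective
  have hσ : ∀ x, σ x = x ^ q := fun x => rfl
  have hσ2 : σ ^ 2 = 1 := by
    ext x
    rw [pow_two, RingAut.mul_apply, RingAut.one_apply, hσ, hσ, pow_q_pow_q hF]
  have hσ1 : σ ≠ 1 := by
    intro h
    apply frobQ_ne_id hF
    ext x
    have := RingEquiv.congr_fun h x
    simpa [hσ] using this
  have hord : orderOf σ = 2 := orderOf_eq_prime hσ2 hσ1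
  have hmem : ∀ x, x ∈ FixedPoints.subfield (Subgroup.zpowers σ) F ↔ x ^ q = x := by
    intro x
    constructor
    · intro h
      exact h ⟨σ, Subgroup.mem_zpowers σ⟩
    · intro h
      rintro ⟨τ, hτ⟩
      show τ x = x
      have hm : τ ∈ (MulAction.stabilizer (F ≃+* F) x) := by
        have h1 : Subgroup.zpowers σ ≤ MulAction.stabilizer (F ≃+* F) x := by
          rw [Subgroup.zpowers_le]
          exact h
        exact h1 hτ
      exact hm
  refine ⟨FixedPoints.subfield (Subgroup.zpowers σ) F, hmem, ?_⟩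
  have hfin : Finite (F ≃+* F) := Finite.of_injective (fun e => (e : F → F)) DFunLike.coe_injective
  have : Fintype (Subgroup.zpowers σ) := Fintype.ofFinite _
  have h1 : Module.finrank (FixedPoints.subfield (Subgroup.zpowers σ) F) F = 2 := by
    rw [FixedPoints.finrank_eq_card, Fintype.card_eq_nat_card, Nat.card_zpowers, hord]
  have h2 := Module.natCard_eq_pow_finrank (K := FixedPoints.subfield (Subgroup.zpowers σ) F) (V := F)
  rw [h1, Nat.card_eq_fintype_card] at h2
  exact h2

end Cfsg.Agent.Lib.Helper9.AschU
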