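import Cfsg.Agent.Lib.Helper13.Asch.Defs3
import Cfsg.Agent.Lib.Helper13.Herm
import Cfsg.Agent.Lib.Helper5.SUAsch.Defs

set_option autoImplicit false

/-! # Subgroup structure of the unitary groups: shared vocabulary -/

namespace Cfsg.Agent.Lib.Helper9.AschU

open Cfsg Cfsg.Geo Matrix Cfsg.Agent.Lib.Helper13.Asch Cfsg.Agent.Lib.Helper5.SUAsch
open scoped Kronecker MatrixGroups

variable {ι : Type} [Fintype ι] [DecidableEq ι] {F : Type*} [Field F]

/-- the adjoint of a matrix for the standard unitary form: conjugate transpose -/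
def adj (q : ℕ) (X : Matrix ι ι F) : Matrix ι ι F := fun i j => X j i ^ q

/-- a subalgebra closed under adjoints -/
def StarClosed (q : ℕ) (A : Subalgebra F (Matrix ι ι F)) : Prop := ∀ x ∈ A, adj q x ∈ A

/-- the escape alternative: a tensor power of the standard unitary 3-space over the field with
four elements -/
def E23 [Fintype F] (n q : ℕ) (H : Subgroup (GL (Fin n) F)) : Prop :=
  q = 2 ∧ ∃ (t : ℕ) (e : Fin n ≃ (Fin t → Fin 3)) (P : GL (Fin n) F), 2 ≤ t ∧
    IsTensorPowerFormStructure (fun x : F => x ^ q) (hermForm n F q) (hermForm 3 F q) e P ∧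
    H ≤ tensorWreathSubgroup 3 t e P

end Cfsg.Agent.Lib.Helper9.AschU
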