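import Cfsg.Agent.Lib.Helper9.AschU.Base
import Cfsg.Agent.Lib.Helper5.AschU.A12
import Cfsg.Agent.Lib.Helper91.Asch.C5

set_option autoImplicit false

/-! # Piece UC5 : the symplectic-type case of the unitary theorem -/

namespace Cfsg.Agent.Lib.Helper9.AschU

open Cfsg Cfsg.Geo Matrix Cfsg.Agent.Lib.Helper13 Cfsg.Agent.Lib.Helper13.Asch
  Cfsg.Agent.Lib.Helper5.SUAsch Cfsg.Agent.Lib.Helper91.Asch
open scoped Kronecker MatrixGroups

variable {F : Type*} [Field F] [Fintype F] {n q : ℕ}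

/-- the multiplier of a power -/
theorem sim_pow {x : GL (Fin n) F} {c : F}
    (h : ∀ u v, hermForm n F q ((x : Matrix (Fin n) (Fin n) F) *ᵥ u)
      ((x : Matrix (Fin n) (Fin n) F) *ᵥ v) = c * hermForm n F q u v) (k : ℕ) :
    ∀ u v, hermForm n F q (((x ^ k : GL (Fin n) F) : Matrix (Fin n) (Fin n) F) *ᵥ u)
      (((x ^ k : GL (Fin n) F) : Matrix (Fin n) (Fin n) F) *ᵥ v) = c ^ k * hermForm n F q u v := by
  induction k with
  | zero => intro u v; simp
  | succ k ih =>
    intro u v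
    rw [pow_succ, Units.val_mul, ← Matrix.mulVec_mulVec, ← Matrix.mulVec_mulVec, ih, h, pow_succ,
      mul_assoc]

theorem even_of_prime_pow_eq_sq {p e : ℕ} (hp : p.Prime) (h : p ^ e = q ^ 2) : Even e := by
  have h1 := congrArg (fun m => m.factorization p) h
  simp only [Nat.factorization_pow, Finsupp.smul_apply, smul_eq_mul, hp.factorization_self,
    mul_one] at h1
  exact ⟨q.factorization p, by omega⟩

theorem exists_sq_eq_neg_one (hF : Fintype.card F = q ^ 2) (h2 : (2 : F) ≠ 0) :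
    ∃ i : F, i * i = -1 := by
  -- `-1` is fixed by `x ↦ x ^ q`, hence a norm `l ^ (q + 1)`, and `q + 1` is even
  have hq : Odd q := by
    by_contra hq
    rw [Nat.not_odd_iff_even] at hq
    obtain ⟨p, k, hp, hchar, rfl⟩ := exists_char_pow hF
    have hk : k ≠ 0 := by
      rintro rfl
      simp at hq
    have hp2 : p = 2 := by
      have := (Nat.Prime.even_iff hp).1 ((Nat.even_pow.1 hq).1)
      exact this
    subst hp2
    exact h2 (CharP.cast_eq_zero F 2)
  obtain ⟨l, hl⟩ := norm_surjective hF (-1 : F) (hq.neg_one_pow)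
  obtain ⟨m, hm⟩ := hq
  refine ⟨l ^ (m + 1), ?_⟩
  rw [← pow_add, ← hl]
  congr 1
  omega

/-- UC5 -/
theorem uc6_of_RData (hF : Fintype.card F = q ^ 2) (hn : 2 ≤ n) {H R : Subgroup (GL (Fin n) F)}
    {r : ℕ} (hH : H ≤ GU n F q) (h : RData H R r)
    (hsim : R ≤ similarityGroup (hermForm n F q)) : UCls n q H := by
  classical
  have hι : 2 ≤ Fintype.card (Fin n) := by rw [Fintype.card_fin]; omega
  have : Nonempty (Fin n) := ⟨⟨0, by omega⟩⟩
  obtain ⟨p, hpchar⟩ := CharP.exists F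
  have hp : p.Prime := CharP.char_is_prime F p
  have := Fact.mk hp
  obtain ⟨e, hFe⟩ : ∃ e : ℕ, Fintype.card F = p ^ e := by
    obtain ⟨e, -, he⟩ := FiniteField.card F p
    exact ⟨e, he⟩
  obtain ⟨hrp, hcardR⟩ := RData.char_ne hι h p
  obtain ⟨m, hm1, hnm, hcard⟩ := RData.card_index hι h
  have hcen := RData.card_center h
  have hkpos : 0 < r * Nat.gcd 2 r :=
    Nat.mul_pos h.prime.pos (Nat.gcd_pos_of_pos_left _ (by norm_num))
  -- a primitive root and the order of the scalars of `R`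
  obtain ⟨ζ, hζ, hz⟩ : ∃ ζ : F, IsPrimitiveRoot ζ (r * Nat.gcd 2 r) ∧
      Nat.card (R ⊓ scalars (Fin n) F : Subgroup (GL (Fin n) F)) = r * Nat.gcd 2 r := by
    by_cases hr2 : r = 2
    · subst hr2
      have h2 : (2 : F) ≠ 0 := RData.two_ne_zero hι h
      obtain ⟨hc4, -⟩ := RData.card_sc_two hι h
      have hk4 : 2 * Nat.gcd 2 2 = 4 := by norm_num
      have hi := exists_sq_eq_neg_one hF h2
      have hz := hc4 hi
      obtain ⟨i, hi⟩ := hi
      exact ⟨i, by rw [hk4]; exact isPrimitiveRoot_four h2 hi, by rw [hk4]; exact hz⟩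
    · have hz := RData.card_sc_odd hι h hr2
      obtain ⟨γ, hγ⟩ := RData.exists_primitive_odd hι h hr2
      have hg := gcd_two_of_ne h.prime hr2
      exact ⟨(γ : F), by rw [hg, mul_one]; exact IsPrimitiveRoot.coe_units_iff.2 hγ,
        by rw [hg, mul_one]; exact hz⟩
  have hζ0 : ζ ≠ 0 := hζ.ne_zero hkpos.ne'
  have hzdvd : r * Nat.gcd 2 r ∣ p ^ e - 1 := by
    apply hζ.dvd_of_pow_eq_one
    rw [← hFe]
    exact FiniteField.pow_card_sub_one_eq_one ζ hζ0
  by_cases hmin : IsMinimalFieldFor (r * Nat.gcd 2 r) p e F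
  · -- class 6
    refine Or.inr (Or.inr (Or.inr (Or.inr (Or.inr (Or.inr (Or.inr (Or.inl
      ⟨r, R, p, e, m, Cfsg.Agent.Lib.Helper12.Asch.RData.sympType hι h,
        Cfsg.Agent.Lib.Helper96.Asch.absIrr_of_env_top h.envTop, hsim, hrp,
        by rw [hcen, hz]; exact hmin, ?_, by rw [← hnm, Fintype.card_fin],
        le_subgroupNormalizer h.nrm⟩)))))))
    by_cases hr2 : r = 2
    · subst hr2
      right
      have hk4 : 2 * Nat.gcd 2 2 = 4 := by norm_num
      rw [hk4] at hz hmin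
      have hpodd : Odd p := hp.eq_two_or_odd'.resolve_left (fun h2 => hrp h2.symm)
      have heven : Even e := even_of_prime_pow_eq_sq hp (hFe.symm.trans hF)
      have he2 : e = 2 := by
        have he2 : e ≤ 2 := by
          by_contra hlt
          exact hmin.2.2.2.2 2 (by norm_num) (by omega) (four_dvd_sq_sub_one hpodd)
        have he0 : e ≠ 0 := by
          rintro rfl
          have h1 := Fintype.one_lt_card (α := F)
          rw [hFe] at h1
          simp at h1
        obtain ⟨k, hk⟩ := heven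
        omega
      refine ⟨rfl, he2, by rw [hcen, hz], ?_⟩
      rw [hcard, hz, pow_add]
      ring
    · left
      rw [gcd_two_of_ne h.prime hr2, mul_one] at hz
      refine ⟨h.prime.eq_two_or_odd'.resolve_left hr2, by rw [hcen, hz], hm1, ?_⟩
      rw [hcard, hz, pow_add]
      ring
  · -- class 5
    obtain ⟨F₀, hF₀, hroots⟩ := exists_subfield_of_not_minimal hp hFe hzdvd hmin
    have hreal := Cfsg.Agent.Lib.Helper58.Asch.monomial_realisable R h.comm h.envTop
      (r * Nat.gcd 2 r) h.exp F₀ hroots ⟨ζ, hζ⟩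
    refine Cfsg.Agent.Lib.Helper5.AschU.ucls_of_realisable hF hn hH h.nrm h.envTop F₀ hF₀ hreal ?_
    intro x hx
    obtain ⟨c, hc⟩ := hsim hx
    refine ⟨(c : F), hroots _ ?_, hc⟩
    have h1 := sim_pow hc (r * Nat.gcd 2 r)
    rw [h.exp x hx] at h1
    have h2 := h1 (Pi.single ⟨0, by omega⟩ 1) (Pi.single ⟨0, by omega⟩ 1)
    have h3 : hermForm n F q (Pi.single ⟨0, by omega⟩ 1) (Pi.single ⟨0, by omega⟩ 1) = 1 := by
      rw [hermForm_single_left]
      simp
    rw [Units.val_one, Matrix.one_mulVec, h3, mul_one] at h2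
    exact h2.symm

end Cfsg.Agent.Lib.Helper9.AschU
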