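import Cfsg.Agent.Lib.Helper9.AschU.Base
import Cfsg.Agent.Lib.Helper9.AschU.UC5
import Cfsg.Agent.Lib.Helper96.Asch.L0b

set_option autoImplicit false

/-! # Groups of exponent 3 and symplectic type in unitary groups over the field with four elements -/

namespace Cfsg.Agent.Lib.Helper9.AschU

open Cfsg Cfsg.Geo Matrix Cfsg.Agent.Lib.Helper13 Cfsg.Agent.Lib.Helper13.Asch
  Cfsg.Agent.Lib.Helper5.SUAsch
open scoped Kronecker MatrixGroups

variable {F : Type*} [Field F] [Fintype F] {n q : ℕ}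

/-- the list of classes is antitone in the group -/
theorem UCls.mono {H K : Subgroup (GL (Fin n) F)} (hKH : K ≤ H) (h : UCls n q H) : UCls n q K := by
  rcases h with ⟨W, h0, h1, h⟩ | ⟨W, h0, h1, h2, h⟩ | ⟨t, k, D, hD, h⟩ | ⟨k, D, hk, hD, hs, h⟩ |
    ⟨F₀, r, P, hr, ho, hc, hf, h⟩ | ⟨F₀, P, ho, hc, hf, h⟩ | ⟨F₀, P, ζ, he, hc, h0, h1, hf, ha, h⟩ |
    ⟨r, R, p, e, k, h1, h2, h3, h4, h5, h6, h7, h⟩ | ⟨r, K, hr, ho, hK, ha, h⟩ |
    ⟨a, b, e, P, f₁, f₂, ha, hb, h1, h2, h3, h⟩ | ⟨k, t, e, P, f₁, hk, ht, hx, h1, h2, h⟩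
  · exact Or.inl ⟨W, h0, h1, hKH.trans h⟩
  · exact Or.inr (Or.inl ⟨W, h0, h1, h2, hKH.trans h⟩)
  · exact Or.inr (Or.inr (Or.inl ⟨t, k, D, hD, hKH.trans h⟩))
  · exact Or.inr (Or.inr (Or.inr (Or.inl ⟨k, D, hk, hD, hs, hKH.trans h⟩)))
  · exact Or.inr (Or.inr (Or.inr (Or.inr (Or.inl ⟨F₀, r, P, hr, ho, hc, hf, hKH.trans h⟩))))
  · exact Or.inr (Or.inr (Or.inr (Or.inr (Or.inr (Or.inl ⟨F₀, P, ho, hc, hf, hKH.trans h⟩)))))
  · exact Or.inr (Or.inr (Or.inr (Or.inr (Or.inr (Or.inr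
      (Or.inl ⟨F₀, P, ζ, he, hc, h0, h1, hf, ha, hKH.trans h⟩))))))
  · exact Or.inr (Or.inr (Or.inr (Or.inr (Or.inr (Or.inr (Or.inr
      (Or.inl ⟨r, R, p, e, k, h1, h2, h3, h4, h5, h6, h7, hKH.trans h⟩)))))))
  · exact Or.inr (Or.inr (Or.inr (Or.inr (Or.inr (Or.inr (Or.inr (Or.inr
      (Or.inl ⟨r, K, hr, ho, hK, ha, hKH.trans h⟩))))))))
  · exact Or.inr (Or.inr (Or.inr (Or.inr (Or.inr (Or.inr (Or.inr (Or.inr (Or.inr
      (Or.inl ⟨a, b, e, P, f₁, f₂, ha, hb, h1, h2, h3, hKH.trans h⟩)))))))))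
  · exact Or.inr (Or.inr (Or.inr (Or.inr (Or.inr (Or.inr (Or.inr (Or.inr (Or.inr
      (Or.inr ⟨k, t, e, P, f₁, hk, ht, hx, h1, h2, hKH.trans h⟩)))))))))

theorem GU_le_similarityGroup : GU n F q ≤ similarityGroup (hermForm n F q) := by
  intro x hx
  refine ⟨1, fun u v => ?_⟩
  rw [Units.val_one, one_mul]
  exact hx u v

section gb

variable {ι : Type} [Fintype ι] [DecidableEq ι]

/-- the matrix `1 + B + l B²` -/
def gbM (l : F) (B : Matrix ι ι F) : Matrix ι ι F := 1 + B + l • (B * B)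

omit [Fintype F] in
theorem gbM_mul (h2 : (2 : F) = 0) {l : F} (hl : l ^ 2 + l + 1 = 0) {B : Matrix ι ι F}
    (hB : B * B * B = 1) : gbM l B * (1 + (l ^ 2) • B + B * B) = 1 := by
  unfold gbM
  have hB4 : B * B * (B * B) = B := by
    rw [← mul_assoc, hB, one_mul]
  have hB3' : B * (B * B) = 1 := by rw [← mul_assoc, hB]
  have e : (1 + B + l • (B * B)) * (1 + (l ^ 2) • B + B * B) =
      (1 + 1 + l ^ 3) • (1 : Matrix ι ι F) + (l ^ 2 + 1 + l) • B + (1 + l ^ 2 + l) • (B * B) := by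
    simp only [add_mul, mul_add, one_mul, mul_one, smul_mul_assoc, mul_smul_comm, hB4, hB3', hB,
      smul_smul]
    module
  have hl3 : l ^ 3 = 1 := by
    have : l ^ 3 - 1 = (l - 1) * (l ^ 2 + l + 1) := by ring
    rw [hl, mul_zero] at this
    exact sub_eq_zero.1 this
  rw [e, hl3]
  have e1 : (l ^ 2 + 1 + l : F) = 0 := by rw [← hl]; ring
  have e2 : (1 + l ^ 2 + l : F) = 0 := by rw [← hl]; ring
  have e3 : (1 + 1 + 1 : F) = 1 := by
    have : (1 + 1 + 1 : F) = 2 + 1 := by ring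
    rw [this, h2, zero_add]
  rw [e1, e2, e3, zero_smul, zero_smul, add_zero, add_zero, one_smul]

omit [Fintype F] [DecidableEq ι] in
theorem mul_sq_of_mul {m : F} {X B : Matrix ι ι F} (h : X * B = m • (B * X)) :
    X * (B * B) = (m ^ 2) • (B * (B * X)) := by
  rw [← mul_assoc, h, smul_mul_assoc, mul_assoc, h, mul_smul_comm, smul_smul, pow_two]

omit [Fintype F] in
theorem gbM_conj_one {l : F} {X B : Matrix ι ι F} (h : X * B = B * X) :
    gbM l B * X = X * gbM l B := by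
  unfold gbM
  have h' : X * (B * B) = B * B * X := by
    rw [← mul_assoc, h, mul_assoc, h, mul_assoc]
  rw [add_mul, add_mul, mul_add, mul_add, one_mul, mul_one, h, mul_smul_comm, h', smul_mul_assoc]

omit [Fintype F] in
theorem gbM_conj_l {l : F} (hl3 : l ^ 3 = 1) {X B : Matrix ι ι F} (hB : B * B * B = 1)
    (h : X * B = l • (B * X)) : gbM l B * X = (B * X) * gbM l B := by
  unfold gbM
  have h' := mul_sq_of_mul h
  have hB' : B * (B * (B * X)) = X := by rw [← mul_assoc, ← mul_assoc, hB, one_mul]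
  rw [add_mul, add_mul, mul_add, mul_add, one_mul, mul_one, mul_smul_comm, smul_mul_assoc,
    mul_assoc B X B, h, mul_assoc B X (B * B), h', mul_smul_comm, mul_smul_comm, hB', smul_smul,
    ← pow_succ', hl3, one_smul, mul_assoc]
  abel

omit [Fintype F] in
theorem gbM_conj_l2 {l : F} (hl3 : l ^ 3 = 1) {X B : Matrix ι ι F} (hB : B * B * B = 1)
    (h : X * B = (l ^ 2) • (B * X)) : gbM l B * X = (l • (B * B * X)) * gbM l B := by
  unfold gbM
  have h' := mul_sq_of_mul h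
  have hB' : B * (B * (B * X)) = X := by rw [← mul_assoc, ← mul_assoc, hB, one_mul]
  have e1 : B * B * X * B = (l ^ 2) • X := by
    rw [mul_assoc (B * B) X B, h, mul_smul_comm, mul_assoc, hB']
  have e2 : B * B * X * (B * B) = l • (B * X) := by
    rw [mul_assoc (B * B) X (B * B), h', mul_smul_comm, mul_assoc B B, hB']
    congr 1
    calc (l ^ 2) ^ 2 = l ^ 3 * l := by ring
      _ = l := by rw [hl3, one_mul]
  rw [add_mul, add_mul, mul_add, mul_add, one_mul, mul_one, mul_smul_comm, smul_mul_assoc,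
    smul_mul_assoc, smul_mul_assoc, e1, e2, smul_smul, smul_smul, smul_smul]
  have e3 : l * l ^ 2 = 1 := by rw [← hl3]; ring
  have e4 : l * l * l = 1 := by rw [← hl3]; ring
  rw [e3, e4, one_smul, one_smul]
  abel

omit [Fintype F] in
theorem exists_scalar {l : F} (hl : l ≠ 0) :
    ∃ s ∈ scalars ι F, (s : Matrix ι ι F) = l • (1 : Matrix ι ι F) := by
  refine ⟨⟨l • 1, l⁻¹ • 1, ?_, ?_⟩, ?_, rfl⟩
  · rw [smul_mul_smul_comm, mul_inv_cancel₀ hl, one_smul, one_mul]
  · rw [smul_mul_smul_comm, inv_mul_cancel₀ hl, one_smul, one_mul]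
  · exact (mem_scalars_iff _).2 ⟨Units.mk0 l hl, rfl⟩

omit [Fintype F] in
theorem val_cube {b : GL ι F} (hb : b ^ 3 = 1) :
    (b : Matrix ι ι F) * (b : Matrix ι ι F) * (b : Matrix ι ι F) = 1 := by
  have := congrArg Units.val hb
  rwa [pow_succ, pow_two, Units.val_mul, Units.val_mul, Units.val_one] at this

/-- the commutation constant of two elements of `R` -/
theorem exists_comm_const (hF4 : Fintype.card F = 4) {R : Subgroup (GL ι F)}
    (hcomm : ∀ x ∈ R, ∀ y ∈ R, x * y * x⁻¹ * y⁻¹ ∈ scalars ι F) {x b : GL ι F} (hx : x ∈ R)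
    (hb : b ∈ R) : ∃ c : F, c ^ 3 = 1 ∧
      (x : Matrix ι ι F) * (b : Matrix ι ι F) = c • ((b : Matrix ι ι F) * (x : Matrix ι ι F)) := by
  obtain ⟨c, hc⟩ := (mem_scalars_iff _).1 (hcomm x hx b hb)
  refine ⟨c, ?_, ?_⟩
  · have := FiniteField.pow_card_sub_one_eq_one (c : F) c.ne_zero
    rwa [hF4] at this
  · have h1 : x * b = (x * b * x⁻¹ * b⁻¹) * (b * x) := by group
    have h2 := congrArg Units.val h1
    rw [Units.val_mul, Units.val_mul (x * b * x⁻¹ * b⁻¹), hc, smul_mul_assoc, one_mul,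
      Units.val_mul] at h2
    exact h2

omit [Fintype F] in
/-- the three cube roots of unity -/
theorem cube_root_cases {l c : F} (hl : l ^ 2 + l + 1 = 0) (hc : c ^ 3 = 1) :
    c = 1 ∨ c = l ∨ c = l ^ 2 := by
  have h1 : (c - 1) * ((c - l) * (c - l ^ 2)) = 0 := by
    have : (c - 1) * ((c - l) * (c - l ^ 2)) =
        (c ^ 3 - 1) - (c - 1) * c * (l ^ 2 + l + 1) + (c - 1) * (l - 1) * (l ^ 2 + l + 1) := by
      ring
    rw [this, hl, hc]; ring
  rcases mul_eq_zero.1 h1 with h | h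
  · exact Or.inl (sub_eq_zero.1 h)
  · rcases mul_eq_zero.1 h with h | h
    · exact Or.inr (Or.inl (sub_eq_zero.1 h))
    · exact Or.inr (Or.inr (sub_eq_zero.1 h))

/-- `g_b` maps `R` into `R` by conjugation -/
theorem gb_conj_mem (hF4 : Fintype.card F = 4) {R : Subgroup (GL ι F)}
    (hcomm : ∀ x ∈ R, ∀ y ∈ R, x * y * x⁻¹ * y⁻¹ ∈ scalars ι F)
    (hexp : ∀ x ∈ R, x ^ 3 = 1) (hsc : scalars ι F ≤ R) {l : F} (hl : l ^ 2 + l + 1 = 0)
    {b : GL ι F} (hb : b ∈ R) {g : GL ι F} (hg : (g : Matrix ι ι F) = gbM l (b : Matrix ι ι F))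
    {x : GL ι F} (hx : x ∈ R) : g * x * g⁻¹ ∈ R := by
  have hl3 : l ^ 3 = 1 := by
    have : l ^ 3 - 1 = (l - 1) * (l ^ 2 + l + 1) := by ring
    rw [hl, mul_zero] at this
    exact sub_eq_zero.1 this
  have hl0 : l ≠ 0 := by
    rintro rfl
    simp at hl3
  have hB := val_cube (hexp b hb)
  obtain ⟨c, hc3, hc⟩ := exists_comm_const hF4 hcomm hx hb
  have key : ∀ y : GL ι F, y ∈ R → (g : Matrix ι ι F) * (x : Matrix ι ι F) =
      (y : Matrix ι ι F) * (g : Matrix ι ι F) → g * x * g⁻¹ ∈ R := by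
    intro y hy h
    have : g * x = y * g := Units.ext (by rw [Units.val_mul, Units.val_mul, h])
    rw [this, mul_inv_cancel_right]
    exact hy
  rcases cube_root_cases hl hc3 with rfl | rfl | rfl
  · rw [one_smul] at hc
    exact key x hx (by rw [hg]; exact gbM_conj_one hc)
  · exact key (b * x) (mul_mem hb hx) (by rw [hg, Units.val_mul]; exact gbM_conj_l hl3 hB hc)
  · obtain ⟨s, hs, hs'⟩ := exists_scalar (ι := ι) hl0
    refine key (s * (b * b * x)) (mul_mem (hsc hs) (mul_mem (mul_mem hb hb) hx)) ?_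
    rw [hg, Units.val_mul, hs', Units.val_mul, Units.val_mul, smul_mul_assoc, one_mul]
    exact gbM_conj_l2 hl3 hB hc

end gb

theorem two_eq_zero_of_card (hF4 : Fintype.card F = 4) : (2 : F) = 0 := by
  have h4 : ((Fintype.card F : ℕ) : F) = 0 := FiniteField.cast_card_eq_zero F
  rw [hF4] at h4
  have : (2 : F) * 2 = 0 := by
    have h5 : ((4 : ℕ) : F) = 2 * 2 := by norm_num
    rw [← h5]; exact h4
  exact mul_self_eq_zero.1 this

/-- the unitary element `g_b = 1 + b + l b²` of the normaliser of `R` -/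
theorem exists_gb (hF : Fintype.card F = q ^ 2) (hq : q = 2) {R : Subgroup (GL (Fin n) F)}
    (hRU : R ≤ GU n F q)
    (hcomm : ∀ x ∈ R, ∀ y ∈ R, x * y * x⁻¹ * y⁻¹ ∈ scalars (Fin n) F)
    (hexp : ∀ x ∈ R, x ^ 3 = 1) (hsc : scalars (Fin n) F ≤ R) {l : F} (hl : l ^ 2 + l + 1 = 0)
    {b : GL (Fin n) F} (hb : b ∈ R) :
    ∃ g : GL (Fin n) F, (g : Matrix (Fin n) (Fin n) F) = gbM l (b : Matrix (Fin n) (Fin n) F) ∧
      g ∈ subgroupNormalizer R ⊓ GU n F q := by
  subst hq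
  have hF4 : Fintype.card F = 4 := by rw [hF]; norm_num
  have h2 := two_eq_zero_of_card hF4
  have hB := val_cube (hexp b hb)
  obtain ⟨B, hBdef⟩ : ∃ B, B = (b : Matrix (Fin n) (Fin n) F) := ⟨_, rfl⟩
  rw [← hBdef] at hB ⊢
  have hB4 : B * B * (B * B) = B := by rw [← mul_assoc, hB, one_mul]
  have h := gbM_mul h2 hl hB
  have hl4 : (l ^ 2) ^ 2 + l ^ 2 + 1 = 0 := by
    have : (l ^ 2) ^ 2 + l ^ 2 + 1 = (l ^ 2 + l + 1) * (l ^ 2 - l + 1) := by ring
    rw [this, hl, zero_mul]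
  refine ⟨⟨gbM l B, 1 + (l ^ 2) • B + B * B, h, mul_eq_one_comm.1 h⟩, rfl,
    Subgroup.mem_inf.2 ⟨?_, ?_⟩⟩
  · obtain ⟨g, hg⟩ : ∃ g : GL (Fin n) F, g = ⟨gbM l B, 1 + (l ^ 2) • B + B * B, h,
      mul_eq_one_comm.1 h⟩ := ⟨_, rfl⟩
    rw [← hg]
    have hg1 : (g : Matrix (Fin n) (Fin n) F) = gbM l (b : Matrix (Fin n) (Fin n) F) := by
      rw [hg, ← hBdef]
    have hg2 : ((g⁻¹ : GL (Fin n) F) : Matrix (Fin n) (Fin n) F) =
        gbM (l ^ 2) ((b * b : GL (Fin n) F) : Matrix (Fin n) (Fin n) F) := by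
      rw [hg, Units.val_mul, ← hBdef]
      show 1 + (l ^ 2) • B + B * B = gbM (l ^ 2) (B * B)
      unfold gbM
      rw [hB4]
      abel
    unfold subgroupNormalizer
    rw [Subgroup.mem_normalizer_iff]
    intro x
    constructor
    · intro hx
      exact gb_conj_mem hF4 hcomm hexp hsc hl hb hg1 hx
    · intro hx
      have := gb_conj_mem hF4 hcomm hexp hsc hl4 (mul_mem hb hb) hg2 hx
      have e : g⁻¹ * (g * x * g⁻¹) * g⁻¹⁻¹ = x := by group
      rwa [e] at this
  · rw [mem_GU_iff_adj hF]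
    show adj 2 (gbM l B) * gbM l B = 1
    have hadjB : adj 2 B = B * B := by
      rw [hBdef, adj_eq_inv hF (hRU hb)]
      have : b⁻¹ = b * b := by
        have h3 := hexp b hb
        rw [pow_succ, pow_two] at h3
        exact inv_eq_of_mul_eq_one_left h3
      rw [this, Units.val_mul]
    have : adj 2 (gbM l B) = 1 + (l ^ 2) • B + B * B := by
      unfold gbM
      rw [adj_add hF, adj_add hF, adj_one hF, adj_smul, adj_mul hF, hadjB, hB4]
      abel
    rw [this]
    exact mul_eq_one_comm.1 h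

/-- XMin : a group of exponent 3 and symplectic type spanning the matrix algebra gives `RData`
for its normaliser in the unitary group -/
theorem rdata_of_exp3 (hF : Fintype.card F = q ^ 2) (hq : q = 2) {R : Subgroup (GL (Fin n) F)}
    (hRU : R ≤ GU n F q)
    (hcomm : ∀ x ∈ R, ∀ y ∈ R, x * y * x⁻¹ * y⁻¹ ∈ scalars (Fin n) F) (henv : env R = ⊤)
    (hexp : ∀ x ∈ R, x ^ 3 = 1) (hsc : scalars (Fin n) F ≤ R) :
    RData (subgroupNormalizer R ⊓ GU n F q) R 3 := by
  have hF4 : Fintype.card F = 4 := by rw [hF, hq]; norm_num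
  have hg3 : 3 * Nat.gcd 2 3 = 3 := by norm_num
  refine ⟨Nat.prime_three, ?_, hcomm, henv, ?_, ?_, ?_⟩
  · intro h hh x hx
    have h1 : h ∈ Subgroup.normalizer (R : Set (GL (Fin n) F)) := (Subgroup.mem_inf.1 hh).1
    exact (Subgroup.mem_normalizer_iff.1 h1 x).1 hx
  · intro x hx
    rw [hg3]
    exact hexp x hx
  · intro g hg _
    exact hsc hg
  · intro M hM1 hM2 hMn
    rw [inf_eq_right.2 hsc] at hM1 ⊢
    by_cases hMs : M ≤ scalars (Fin n) F
    · exact Or.inl (le_antisymm hMs hM1)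
    right
    obtain ⟨a, haM, has⟩ := SetLike.not_le_iff_exists.1 hMs
    have haR := hM2 haM
    -- elements not commuting with `a` lie in `M`
    have claimA : ∀ b ∈ R, a * b ≠ b * a → b ∈ M := by
      intro b hb hab
      obtain ⟨c, hc3, hc⟩ := exists_comm_const hF4 hcomm haR hb
      have hc1 : c ≠ 1 := by
        rintro rfl
        rw [one_smul] at hc
        exact hab (Units.ext (by rw [Units.val_mul, Units.val_mul, hc]))
      have hl : c ^ 2 + c + 1 = 0 := by
        have : (c - 1) * (c ^ 2 + c + 1) = 0 := by ring_nf; rw [hc3]; ring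
        rcases mul_eq_zero.1 this with h | h
        · exact absurd (sub_eq_zero.1 h) hc1
        · exact h
      obtain ⟨g, hg, hgH⟩ := exists_gb hF hq hRU hcomm hexp hsc hl hb
      have h1 := hMn g hgH a haM
      have h2 : g * a = (b * a) * g := by
        apply Units.ext
        rw [Units.val_mul, Units.val_mul, Units.val_mul, hg]
        exact gbM_conj_l hc3 (val_cube (hexp b hb)) hc
      rw [h2, mul_inv_cancel_right] at h1
      have h3 := mul_mem h1 (inv_mem haM)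
      rwa [mul_inv_cancel_right] at h3
    -- some element of `R` does not commute with `a`
    obtain ⟨c, hcR, hca⟩ : ∃ c ∈ R, a * c ≠ c * a := by
      by_contra hcon
      push Not at hcon
      obtain ⟨k, hk⟩ := Cfsg.Agent.Lib.Helper96.Asch.scalar_of_commute henv
        (a : Matrix (Fin n) (Fin n) F) (fun x hx => by
          have := congrArg Units.val (hcon x hx)
          rwa [Units.val_mul, Units.val_mul] at this)
      apply has
      by_cases hk0 : k = 0
      · have h10 : (1 : Matrix (Fin n) (Fin n) F) = 0 := by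
          have h1 : (a : Matrix (Fin n) (Fin n) F) *
              ((a⁻¹ : GL (Fin n) F) : Matrix (Fin n) (Fin n) F) = 1 := by
            rw [← Units.val_mul, mul_inv_cancel, Units.val_one]
          rw [← h1, hk, hk0, zero_smul, zero_mul]
        exact (mem_scalars_iff a).2 ⟨1, by rw [hk, hk0, zero_smul, h10, smul_zero]⟩
      · exact (mem_scalars_iff a).2 ⟨Units.mk0 k hk0, hk⟩
    have hcM := claimA c hcR hca
    apply le_antisymm hM2
    intro b hb
    by_cases hab : a * b = b * a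
    · have h1 : a * (b * c) ≠ (b * c) * a := by
        intro h
        apply hca
        have : b * (a * c) = b * (c * a) := by
          rw [← mul_assoc, ← hab, mul_assoc, h, mul_assoc]
        exact mul_left_cancel this
      have h2 := claimA (b * c) (mul_mem hb hcR) h1
      have h3 := mul_mem h2 (inv_mem hcM)
      rwa [mul_inv_cancel_right] at h3
    · exact claimA b hb hab

/-- every subgroup of the unitary group normalising such a group lies in class 6 -/
theorem ucls_of_exp3 (hF : Fintype.card F = q ^ 2) (hq : q = 2) (hn : 2 ≤ n)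
    {H R : Subgroup (GL (Fin n) F)} (hH : H ≤ GU n F q) (hRU : R ≤ GU n F q)
    (hcomm : ∀ x ∈ R, ∀ y ∈ R, x * y * x⁻¹ * y⁻¹ ∈ scalars (Fin n) F) (henv : env R = ⊤)
    (hexp : ∀ x ∈ R, x ^ 3 = 1) (hsc : scalars (Fin n) F ≤ R)
    (hHR : H ≤ subgroupNormalizer R) : UCls n q H :=
  UCls.mono (le_inf hHR hH) (uc6_of_RData hF hn inf_le_right
    (rdata_of_exp3 hF hq hRU hcomm henv hexp hsc) (hRU.trans GU_le_similarityGroup))

end Cfsg.Agent.Lib.Helper9.AschU
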