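import Cfsg.Agent.Lib.Helper9.AschU.Main
import Cfsg.Agent.Lib.Helper6.X23.Main

set_option autoImplicit false

/-! # Subgroup structure of the finite unitary groups: the main theorem -/

namespace Cfsg.Agent.Lib.Helper9.AschU

open Cfsg Cfsg.Geo Matrix Cfsg.Agent.Lib.Helper13 Cfsg.Agent.Lib.Helper13.Asch
  Cfsg.Agent.Lib.Helper5.SUAsch
open scoped Kronecker MatrixGroups

variable {F : Type*} [Field F] [Fintype F] {n q : ℕ}

/-- the main theorem: every subgroup of `GU_n(q)` lies in a member of a geometric class or is in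
the residual class -/
theorem main (hF : Fintype.card F = q ^ 2) (hn : 2 ≤ n) (H : Subgroup (GL (Fin n) F))
    (hH : H ≤ GU n F q) : UCls n q H ∨ InUnitaryResidualClass H := by
  rcases main_raw hF hn H hH with (h | h) | h
  · exact Or.inl h
  · exact Or.inl (Cfsg.Agent.Lib.Helper6.X23.ucls_of_E23 hF hH h)
  · exact Or.inr h

end Cfsg.Agent.Lib.Helper9.AschU
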