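import Cfsg.Agent.Lib.Helper9.AschU.Base
import Cfsg.Agent.Lib.Helper62.AschU.U2B
import Cfsg.Agent.Lib.Helper73.Asch.L2b

set_option autoImplicit false

/-! # Piece U2C : commutative adjoint-closed normalised subalgebras -/

namespace Cfsg.Agent.Lib.Helper9.AschU

open Cfsg Cfsg.Geo Matrix Cfsg.Agent.Lib.Helper13 Cfsg.Agent.Lib.Helper13.Asch
  Cfsg.Agent.Lib.Helper5.SUAsch Cfsg.Agent.Lib.Helper73.Asch
open scoped Kronecker MatrixGroups

variable {F : Type*} [Field F] [Fintype F] {n q : ℕ}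

theorem atomIdem_adj (hF : Fintype.card F = q ^ 2) {Z : Subalgebra F (Matrix (Fin n) (Fin n) F)}
    (hcomm : ∀ x ∈ Z, ∀ y ∈ Z, x * y = y * x) (hstar : StarClosed q Z)
    {e : Matrix (Fin n) (Fin n) F} (he : AtomIdem Z e) : AtomIdem Z (adj q e) := by
  obtain ⟨h1, h2, h3, h4⟩ := he
  refine ⟨hstar e h1, ?_, ?_, ?_⟩
  · rw [← adj_mul hF, h2]
  · intro h0
    apply h3
    rw [← adj_adj hF e, h0]
    ext i j
    have hq : q ≠ 0 := by
      have := two_le_of_card_sq hF
      omega
    simp [adj, hq]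
  · intro f hf hff
    have hf' : adj q f ∈ Z := hstar f hf
    have hff' : adj q f * adj q f = adj q f := by rw [← adj_mul hF, hff]
    have key : adj q e * f = adj q (e * adj q f) := by
      rw [adj_mul hF, adj_adj hF, hcomm _ hf _ (hstar e h1)]
    rcases h4 _ hf' hff' with h | h
    · left
      rw [key, h]
      ext i j
      have hq : q ≠ 0 := by
        have := two_le_of_card_sq hF
        omega
      simp [adj, hq]
    · right
      rw [key, h]

/-- U2C -/
theorem ucomm_dichotomy (hF : Fintype.card F = q ^ 2) {H : Subgroup (GL (Fin n) F)}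
    (hH : H ≤ GU n F q) (hirr : ActsIrreducibly (matrixSet H))
    (Z : Subalgebra F (Matrix (Fin n) (Fin n) F)) (hZ : H ≤ subalgebraNormalizer Z)
    (hcomm : ∀ x ∈ Z, ∀ y ∈ Z, x * y = y * x) (hstar : StarClosed q Z) :
    UCls n q H ∨ (∀ x ∈ Z, x ≠ 0 → ∃ y ∈ Z, x * y = 1) := by
  have hss : SS Z := ss_of_irr H hirr Z hZ
  set 𝒟 : Set (Submodule F (Fin n → F)) :=
    {W | ∃ e, AtomIdem Z e ∧ W = LinearMap.range (Matrix.toLin' e)} with h𝒟
  by_cases h2 : ∃ W ∈ 𝒟, ∃ W' ∈ 𝒟, W ≠ W'
  · left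
    refine Cfsg.Agent.Lib.Helper62.AschU.ucls_of_paired_set hF hH hirr 𝒟 ?_ ?_ h2 ?_ ?_
    · rintro _ ⟨e, he, rfl⟩
      exact range_ne_bot he.2.2.1
    · rintro _ ⟨e, he, rfl⟩
      have hle : sSup (𝒟 \ {LinearMap.range (Matrix.toLin' e)}) ≤
          LinearMap.ker (Matrix.toLin' e) := by
        refine sSup_le ?_
        rintro _ ⟨⟨e', he', rfl⟩, hne⟩
        have hee' : e ≠ e' := by
          rintro rfl
          exact hne rfl
        have h0 := atom_mul_eq_zero hcomm he he' hee'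
        rintro _ ⟨w, rfl⟩
        simp only [LinearMap.mem_ker, Matrix.toLin'_apply, Matrix.mulVec_mulVec, h0,
          Matrix.zero_mulVec]
      refine Disjoint.mono_right hle ?_
      rw [Submodule.disjoint_def]
      rintro _ ⟨w, rfl⟩ hw
      simp only [LinearMap.mem_ker, Matrix.toLin'_apply, Matrix.mulVec_mulVec, he.2.1] at hw
      simpa using hw
    · rintro h hh _ ⟨e, he, rfl⟩
      exact ⟨_, atom_conj (hZ hh) he, map_range_conj h e⟩
    · rintro _ ⟨e, he, rfl⟩
      refine ⟨_, ⟨adj q e, atomIdem_adj hF hcomm hstar he, rfl⟩, ?_⟩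
      rintro _ ⟨e', he', rfl⟩ hne
      have hee' : adj q e ≠ e' := by
        rintro rfl
        exact hne rfl
      have h0 := atom_mul_eq_zero hcomm (atomIdem_adj hF hcomm hstar he) he' hee'
      rintro _ ⟨u, rfl⟩ _ ⟨v, rfl⟩
      rw [Matrix.toLin'_apply, Matrix.toLin'_apply, hermForm_mulVec_left hF, Matrix.mulVec_mulVec,
        h0, Matrix.zero_mulVec]
      have hq : q ≠ 0 := by
        have := two_le_of_card_sq hF
        omega
      simp [hermForm, hq]
  · right
    rcases comm_dichotomy H hirr Z hZ hcomm with ⟨t, m, D, hD, hHD⟩ | h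
    swap
    · exact h
    -- repeat the argument of `comm_dichotomy` in the case of a single atom
    push Not at h2
    intro x hx hx0
    obtain ⟨u, hu, hxu⟩ := exists_quasi_inv hss hcomm hx
    refine ⟨u, hu, ?_⟩
    by_contra hne
    have hxuZ : x * u ∈ Z := Z.mul_mem hx hu
    have hid : x * u * (x * u) = x * u := by
      rw [mul_assoc, ← mul_assoc u x u, hcomm u hu x hx, ← mul_assoc, ← mul_assoc, hxu]
    have hne0 : x * u ≠ 0 := by
      intro h0
      apply hx0
      rw [← hxu, mul_assoc, h0, mul_zero]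
    have hcZ : 1 - x * u ∈ Z := Z.sub_mem Z.one_mem hxuZ
    have hcid : (1 - x * u) * (1 - x * u) = 1 - x * u := by
      rw [mul_sub, sub_mul, sub_mul, hid]
      simp
    have hc0 : 1 - x * u ≠ 0 := fun h0 => hne (sub_eq_zero.1 h0).symm
    obtain ⟨e, he, heg⟩ := exists_atom_le hcomm hxuZ hid hne0
    obtain ⟨e', he', heg'⟩ := exists_atom_le hcomm hcZ hcid hc0
    have hr := h2 _ ⟨e, he, rfl⟩ _ ⟨e', he', rfl⟩
    have hee' : e = e' := by
      by_contra hne'
      have h0 := atom_mul_eq_zero hcomm he he' hne'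
      apply he'.2.2.1
      refine Matrix.toLin'.injective (LinearMap.ext fun v => ?_)
      have hv : Matrix.toLin' e' v ∈ LinearMap.range (Matrix.toLin' e) :=
        hr ▸ LinearMap.mem_range_self _ v
      obtain ⟨w, hw⟩ := hv
      have h5 : e *ᵥ (e' *ᵥ v) = e' *ᵥ v := by
        simp only [Matrix.toLin'_apply] at hw
        rw [← hw, Matrix.mulVec_mulVec, he.2.1]
      rw [Matrix.mulVec_mulVec, h0, Matrix.zero_mulVec] at h5
      simp [← h5]
    subst hee'
    apply he.2.2.1
    rw [mul_sub, mul_one, heg, sub_self] at heg'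
    exact heg'.symm

end Cfsg.Agent.Lib.Helper9.AschU
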