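import Cfsg.Agent.Lib.Helper9.AschU.Defs
import Cfsg.Agent.Lib.Helper9.AschU.Base
import Cfsg.Agent.Lib.Helper95.Sp.K2w
import Cfsg.Agent.S0144

set_option autoImplicit false

/-! # The exceptional tensor powers of the unitary 3-space over the field with four elements

A unitary matrix acting on one tensor factor of dimension 3 over the field with four elements has
order dividing 36 (Cayley-Hamilton and `tr X⁻¹ = (tr X) ^ 2`), so a perfect group of such matrices
is trivial by the two-prime theorem. -/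

namespace Cfsg.Agent.Lib.Helper9.AschU

open Cfsg Cfsg.Geo Matrix Cfsg.Agent.Lib.Helper13 Cfsg.Agent.Lib.Helper13.Asch
  Cfsg.Agent.Lib.Helper5.SUAsch
open scoped Kronecker MatrixGroups

section
variable {F : Type*} [Field F]
/-- Cayley-Hamilton for `3 × 3` matrices, with the middle coefficient the trace of the adjugate -/
theorem cayley_three (X : Matrix (Fin 3) (Fin 3) F) :
    X * X * X = X.trace • (X * X) - X.adjugate.trace • X + X.det • 1 := by
  ext i j
  fin_cases i <;> fin_cases j <;>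
    simp [Matrix.mul_apply, Fin.sum_univ_three, Matrix.det_fin_three, Matrix.trace,
      Matrix.adjugate_fin_three] <;> ring

/-- over the field with four elements, an invertible `3 × 3` matrix with
`tr X⁻¹ = (tr X) ^ 2` has order dividing `36` -/
theorem pow36_of_trace [Fintype F] (hF : Fintype.card F = 4) (X Y : Matrix (Fin 3) (Fin 3) F)
    (hXY : X * Y = 1) (htr : Y.trace = X.trace ^ 2) : X ^ 36 = 1 := by
  have h2 : (2 : F) = 0 := by
    have h4 : ((Fintype.card F : ℕ) : F) = 0 := FiniteField.cast_card_eq_zero F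
    rw [hF] at h4
    have : (2 : F) * 2 = 0 := by
      have h5 : ((4 : ℕ) : F) = 2 * 2 := by norm_num
      rw [← h5]; exact h4
    exact mul_self_eq_zero.1 this
  have h3 : ∀ a : F, a ≠ 0 → a ^ 3 = 1 := by
    intro a ha
    have := FiniteField.pow_card_sub_one_eq_one a ha
    rwa [hF] at this
  have hYX : Y * X = 1 := mul_eq_one_comm.1 hXY
  obtain ⟨a, ha⟩ : ∃ a, a = X.trace := ⟨_, rfl⟩
  obtain ⟨c, hc⟩ : ∃ c, c = X.det := ⟨_, rfl⟩
  have hc0 : c ≠ 0 := by
    intro h0
    have := congrArg Matrix.det hXY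
    rw [Matrix.det_mul, ← hc, h0, zero_mul, Matrix.det_one] at this
    exact zero_ne_one this
  have hadj : X.adjugate = c • Y := by
    have h1 : X * X.adjugate = c • 1 := by rw [Matrix.mul_adjugate, hc]
    calc X.adjugate = (Y * X) * X.adjugate := by rw [hYX, one_mul]
      _ = Y * (X * X.adjugate) := by rw [mul_assoc]
      _ = c • Y := by rw [h1, mul_smul_comm, mul_one]
  have hCH : X * X * X = a • (X * X) - (c * a ^ 2) • X + c • 1 := by
    have := cayley_three X
    rw [hadj, Matrix.trace_smul, htr, ← ha, ← hc, smul_eq_mul] at this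
    exact this
  have hc3 := h3 c hc0
  by_cases ha0 : a = 0
  · rw [ha0] at hCH
    have h5 : X ^ 3 = c • 1 := by
      rw [pow_succ, pow_two, hCH]
      simp
    rw [show 36 = 3 * 12 from rfl, pow_mul, h5, smul_pow, one_pow, show 12 = 3 * 4 from rfl, pow_mul,
      hc3, one_pow, one_smul]
  have ha3 := h3 a ha0
  obtain ⟨h, hh⟩ : ∃ h, h = X * X := ⟨_, rfl⟩
  have h4 : h * h = (a ^ 2 * (1 - c)) • h + (a * c) • 1 := by
    have e1 : h * h = (X * X * X) * X := by rw [hh]; simp only [mul_assoc]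
    rw [e1, hCH, add_mul, sub_mul, smul_mul_assoc, smul_mul_assoc, smul_mul_assoc, one_mul, hCH, ← hh]
    have e2 : (c * a ^ 3) • X = c • X := by rw [ha3, mul_one]
    calc a • (a • h - (c * a ^ 2) • X + c • 1) - (c * a ^ 2) • h + c • X
        = (a ^ 2 * (1 - c)) • h + (a * c) • 1 + (c • X - (c * a ^ 3) • X) := by module
      _ = (a ^ 2 * (1 - c)) • h + (a * c) • 1 := by rw [e2, sub_self, add_zero]
  have hX36 : X ^ 36 = h ^ 18 := by
    rw [show 36 = 2 * 18 from rfl, pow_mul, pow_two, hh]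
  rw [hX36]
  by_cases hc1 : c = 1
  · rw [hc1, sub_self, mul_zero, zero_smul, zero_add, mul_one] at h4
    rw [show 18 = 2 * 9 from rfl, pow_mul, pow_two, h4, smul_pow, one_pow, show 9 = 3 * 3 from rfl,
      pow_mul, ha3, one_pow, one_smul]
  · have hcc : c ^ 2 + c + 1 = 0 := by
      have : (c - 1) * (c ^ 2 + c + 1) = 0 := by ring_nf; rw [hc3]; ring
      rcases mul_eq_zero.1 this with h | h
      · exact absurd (sub_eq_zero.1 h) hc1
      · exact h
    have h6 : h * h * h = 1 := by
      rw [h4, add_mul, smul_mul_assoc, smul_mul_assoc, one_mul, h4]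
      have e3 : (a ^ 2 * (1 - c)) * (a ^ 2 * (1 - c)) + a * c = 0 := by
        have : (a ^ 2 * (1 - c)) * (a ^ 2 * (1 - c)) + a * c =
            a ^ 3 * a * (c ^ 2 + c + 1) - a ^ 3 * a * c * 2 - a * c * (a ^ 3 - 1) := by ring
        rw [this, hcc, h2, ha3]; ring
      have e4 : (a ^ 2 * (1 - c)) * (a * c) = 1 := by
        have : (a ^ 2 * (1 - c)) * (a * c) = a ^ 3 * (1 + 2 * c - (c ^ 2 + c + 1)) := by ring
        rw [this, hcc, h2, ha3]; ring
      calc (a ^ 2 * (1 - c)) • ((a ^ 2 * (1 - c)) • h + (a * c) • (1 : Matrix (Fin 3) (Fin 3) F)) +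
            (a * c) • h
          = ((a ^ 2 * (1 - c)) * (a ^ 2 * (1 - c)) + a * c) • h +
              ((a ^ 2 * (1 - c)) * (a * c)) • 1 := by module
        _ = 1 := by rw [e3, e4, zero_smul, zero_add, one_smul]
    have h7 : h ^ 3 = 1 := by rw [pow_succ, pow_two, h6]
    rw [show 18 = 3 * 6 from rfl, pow_mul, h7, one_pow]

theorem trace_stdT {m t : ℕ} (i : Fin t) (X : Matrix (Fin m) (Fin m) F) :
    (stdT i X).trace = (m ^ (t - 1) : ℕ) • X.trace := by
  classical
  have h1 : (stdT i X).trace = ∑ x : Fin t → Fin m, X (x i) (x i) := by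
    unfold Matrix.trace
    apply Finset.sum_congr rfl
    intro x _
    simp [Matrix.diag, stdT]
  rw [h1, ← (Equiv.funSplitAt i (Fin m)).symm.sum_comp, Fintype.sum_prod_type]
  have h2 : ∀ (a : Fin m) (y : {j // j ≠ i} → Fin m),
      ((Equiv.funSplitAt i (Fin m)).symm (a, y)) i = a := by
    intro a y
    simp [Equiv.funSplitAt, Equiv.piSplitAt]
  simp only [h2, Finset.sum_const, Finset.card_univ, Fintype.card_fun, Fintype.card_fin]
  rw [← Finset.smul_sum]
  congr 2
  rw [Fintype.card_subtype_compl, Fintype.card_fin]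
  simp

theorem trace_embT {ι : Type} [Fintype ι] [DecidableEq ι] {m t : ℕ} (e : ι ≃ (Fin t → Fin m))
    (P : GL ι F) (i : Fin t) (X : Matrix (Fin m) (Fin m) F) :
    (embT e P i X).trace = (m ^ (t - 1) : ℕ) • X.trace := by
  unfold embT
  rw [Matrix.trace_mul_cycle, ← Units.val_mul, inv_mul_cancel, Units.val_one, one_mul,
    ← trace_stdT i X]
  simp only [Matrix.trace, Matrix.diag, Matrix.reindex_apply, Matrix.submatrix_apply]
  exact Equiv.sum_comp e.symm.symm (fun a => stdT i X a a)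

theorem embT_pow {ι : Type} [Fintype ι] [DecidableEq ι] {m t : ℕ} (e : ι ≃ (Fin t → Fin m))
    (P : GL ι F) (i : Fin t) (X : Matrix (Fin m) (Fin m) F) (k : ℕ) :
    embT e P i (X ^ k) = embT e P i X ^ k := by
  induction k with
  | zero => rw [pow_zero, pow_zero, Cfsg.Agent.Lib.Helper95.Sp.embT_one]
  | succ k ih => rw [pow_succ, pow_succ, Cfsg.Agent.Lib.Helper95.Sp.embT_mul, ih]

end

theorem derivedSeries_top_of_perfect {L : Type*} [Group L] (h : commutator L = ⊤) (n : ℕ) :
    derivedSeries L n = ⊤ := by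
  induction n with
  | zero => rfl
  | succ n ih => rw [derivedSeries_succ, ih, ← commutator_def, h]

theorem commutator_subtype_top {G : Type*} [Group G] {S : Subgroup G} (h : ⁅S, S⁆ = S) :
    commutator S = ⊤ := by
  have h1 := Subgroup.map_commutator (⊤ : Subgroup S) ⊤ S.subtype
  rw [← commutator_def, ← MonoidHom.range_eq_map, Subgroup.range_subtype, h] at h1
  apply Subgroup.map_injective S.subtype_injective
  rw [h1, ← MonoidHom.range_eq_map, Subgroup.range_subtype]

theorem bot_of_perfect_of_solvable {G : Type*} [Group G] {S : Subgroup G} (h : ⁅S, S⁆ = S)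
    (hs : Group.IsSolvable S) : S = ⊥ := by
  obtain ⟨n, hn⟩ := hs.solvable
  rw [derivedSeries_top_of_perfect (commutator_subtype_top h)] at hn
  rw [eq_bot_iff]
  intro x hx
  have h1 : (⟨x, hx⟩ : S) ∈ (⊥ : Subgroup S) := hn ▸ Subgroup.mem_top _
  exact congrArg Subtype.val (Subgroup.mem_bot.1 h1)

/-- a natural number all of whose prime factors are `2` or `3` -/
theorem eq_two_pow_mul_three_pow {N : ℕ} (hN : N ≠ 0) (h : ∀ p : ℕ, p.Prime → p ∣ N → p ∣ 36) :
    ∃ a b : ℕ, N = 2 ^ a * 3 ^ b := by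
  refine ⟨N.factorization 2, N.factorization 3, ?_⟩
  have h1 : N.primeFactors ⊆ {2, 3} := by
    intro p hp
    have hp' := Nat.mem_primeFactors.1 hp
    have h2 : p ∣ 2 ^ 2 * 3 ^ 2 := h p hp'.1 hp'.2.1
    rcases (Nat.Prime.dvd_mul hp'.1).1 h2 with h3 | h3
    · have := (Nat.prime_dvd_prime_iff_eq hp'.1 Nat.prime_two).1 (hp'.1.dvd_of_dvd_pow h3)
      simp [this]
    · have := (Nat.prime_dvd_prime_iff_eq hp'.1 Nat.prime_three).1 (hp'.1.dvd_of_dvd_pow h3)
      simp [this]
  conv_lhs => rw [← Nat.factorization_prod_pow_eq_self hN]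
  rw [Finsupp.prod_of_support_subset _ (s := {2, 3}) (by simpa using h1) _ (by simp)]
  rw [Finset.prod_pair (by norm_num)]

/-- a perfect finite group of exponent dividing `36` is trivial (Burnside) -/
theorem bot_of_perfect_of_pow36 {G : Type*} [Group G] [Finite G] (L : Subgroup G)
    (hperf : ⁅L, L⁆ = L) (h : ∀ x ∈ L, x ^ 36 = 1) : L = ⊥ := by
  apply bot_of_perfect_of_solvable hperf
  obtain ⟨a, b, hab⟩ := eq_two_pow_mul_three_pow (N := Nat.card L) Nat.card_pos.ne' (by
    intro p hp hdvd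
    have := Fact.mk hp
    obtain ⟨x, hx⟩ := exists_prime_orderOf_dvd_card' p hdvd
    rw [← hx]
    apply orderOf_dvd_of_pow_eq_one
    ext
    simpa using h x x.2)
  exact Cfsg.Agent.S0144.result 2 3 a b Nat.prime_two Nat.prime_three hab

variable {F : Type*} [Field F] [Fintype F] {n q : ℕ}

/-- XD -/
theorem pow36_of_embT (hF : Fintype.card F = q ^ 2) (hq : q = 2) {t : ℕ}
    (e : Fin n ≃ (Fin t → Fin 3)) (P : GL (Fin n) F) (i : Fin t) (x : GL (Fin n) F)
    (hx : x ∈ GU n F q) (X Y : Matrix (Fin 3) (Fin 3) F)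
    (hX : (x : Matrix (Fin n) (Fin n) F) = embT e P i X)
    (hY : ((x⁻¹ : GL (Fin n) F) : Matrix (Fin n) (Fin n) F) = embT e P i Y) : x ^ 36 = 1 := by
  subst hq
  have hF4 : Fintype.card F = 4 := by rw [hF]; norm_num
  have h2 : (2 : F) = 0 := by
    have h4 : ((Fintype.card F : ℕ) : F) = 0 := FiniteField.cast_card_eq_zero F
    rw [hF4] at h4
    have : (2 : F) * 2 = 0 := by
      have h5 : ((4 : ℕ) : F) = 2 * 2 := by norm_num
      rw [← h5]; exact h4
    exact mul_self_eq_zero.1 this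
  have hchar : CharP F 2 := by
    apply CharTwo.of_one_ne_zero_of_two_eq_zero one_ne_zero h2
  have : Nonempty (Fin t → Fin 3) := ⟨fun _ => 0⟩
  have hXY : X * Y = 1 := by
    apply Cfsg.Agent.Lib.Helper95.Sp.embT_injective e P i
    rw [Cfsg.Agent.Lib.Helper95.Sp.embT_mul, ← hX, ← hY, ← Units.val_mul, mul_inv_cancel,
      Units.val_one, Cfsg.Agent.Lib.Helper95.Sp.embT_one]
  have h3 : ∀ k : ℕ, ((3 ^ k : ℕ) : F) = 1 := by
    intro k
    have : (3 : F) = 1 := by
      have : (3 : F) = 2 + 1 := by norm_num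
      rw [this, h2, zero_add]
    push_cast
    rw [this, one_pow]
  have htr : ∀ Z : Matrix (Fin 3) (Fin 3) F, (embT e P i Z).trace = Z.trace := by
    intro Z
    rw [trace_embT, nsmul_eq_mul, h3, one_mul]
  have h5 : Y.trace = X.trace ^ 2 := by
    rw [← htr Y, ← htr X, ← hY, ← hX, ← adj_eq_inv hF hx]
    unfold Matrix.trace
    rw [sum_pow_char 2]
    rfl
  have h6 := pow36_of_trace hF4 X Y hXY h5
  apply Units.ext
  rw [Units.val_pow_eq_pow_val, hX, ← embT_pow, h6, Cfsg.Agent.Lib.Helper95.Sp.embT_one,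
    Units.val_one]

end Cfsg.Agent.Lib.Helper9.AschU
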