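import Cfsg.Agent.Lib.Helper9.AschU.Defs
import Cfsg.Agent.Lib.Helper9.AschU.Base
import Cfsg.Agent.Lib.Helper12.Asch.K2b
import Cfsg.Agent.Lib.Helper60.AschU.UK2f
import Cfsg.Agent.Lib.Helper70.AschU.U7t
import Cfsg.Agent.Lib.Helper9.AschU.X23

set_option autoImplicit false

/-! # Piece UK2b of the unitary Aschbacher campaign, strong form: a family of commuting perfect
subgroups of a unitary group gives a tensor power decomposition compatible with the form, and the
exceptional case (factors of dimension 3 over the field with four elements) does not occur.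
(The proof is helper60's `utensor_of_family_aux` with the exceptional branch closed.) -/

namespace Cfsg.Agent.Lib.Helper9.AschU

open Cfsg Cfsg.Geo Matrix Cfsg.Agent.Lib.Helper13 Cfsg.Agent.Lib.Helper13.Asch
  Cfsg.Agent.Lib.Helper5.SUAsch Cfsg.Agent.Lib.Helper60.AschU Cfsg.Agent.Lib.Helper12.Asch
  Cfsg.Agent.Lib.Helper70.AschU
open scoped Kronecker MatrixGroups

variable {F : Type*} [Field F] [Fintype F] {n q : ℕ}

/-- UK2b in strong form, with the black box A2 `ucls_of_fixes_bilin` as a hypothesis -/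
theorem utensor_of_family_strong (hF : Fintype.card F = q ^ 2) (hn : 2 ≤ n)
    {H : Subgroup (GL (Fin n) F)} (hH : H ≤ GU n F q) (hQP : QP H)
    (ucls_of_fixes_bilin : ∀ {N : Subgroup (GL (Fin n) F)} (_ : N ≤ GU n F q) (_ : Nrm H N)
      (_ : env N = ⊤) (b : (Fin n → F) → (Fin n → F) → F) (_ : IsBilinearForm b)
      (_ : IsNondegenerateForm b) (_ : FixesForm (matrixSet N) b), UCls n q H)
    {t : ℕ} (ht : 2 ≤ t) (P : Fin t → Subgroup (GL (Fin n) F)) (hPH : ∀ i, P i ≤ H)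
    (hcomm : ∀ i j, i ≠ j → ∀ x ∈ P i, ∀ y ∈ P j, x * y = y * x)
    (hperm : ∀ h ∈ H, ∃ σ : Equiv.Perm (Fin t), ∀ i,
      (P i).map (MulAut.conj h).toMonoidHom = P (σ i))
    (htrans : ∀ i j, ∃ h ∈ H, (P i).map (MulAut.conj h).toMonoidHom = P j)
    (hns : ∀ i, ¬ P i ≤ scalars (Fin n) F) (hperf : ∀ i, ⁅P i, P i⁆ = P i) :
    UCls n q H := by
  classical
  have hne : Nonempty (Fin n) := ⟨⟨0, by omega⟩⟩
  obtain ⟨hnrm, henv, m, e, Pm, hHw, hxenv⟩ :=
    tensor_frame' hQP ht P hPH hcomm hperm htrans hns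
  have hx : ∀ i, ∀ x ∈ P i, ∃ X : Matrix (Fin m) (Fin m) F,
      (x : Matrix (Fin n) (Fin n) F) = embT e Pm i X :=
    fun i x hxP => (hxenv i _).1 (mem_env hxP)
  have i0 : Fin t := ⟨0, by omega⟩
  rcases Nat.lt_or_ge m 3 with hm | hm
  swap
  · have hstar : ∀ (i : Fin t) (X : Matrix (Fin m) (Fin m) F), ∃ Y : Matrix (Fin m) (Fin m) F,
        adj q (embT e Pm i X) = embT e Pm i Y := by
      intro i X
      have h1 : embT e Pm i X ∈ env (P i) := (hxenv i _).2 ⟨X, rfl⟩
      have h2 := starClosed_env hF ((hPH i).trans hH) _ h1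
      exact (hxenv i _).1 h2
    obtain ⟨P', hP'w, hP'f⟩ := tensor_power_form hF (by omega) (by omega) e Pm hstar
    by_cases hq : q = 2 ∧ m = 3
    · exfalso
      obtain ⟨hq2, rfl⟩ := hq
      have hbot : P i0 = ⊥ := bot_of_perfect_of_pow36 (P i0) (hperf i0) (fun x hxP => by
        obtain ⟨X, hX⟩ := hx i0 x hxP
        obtain ⟨Y, hY⟩ := hx i0 x⁻¹ (inv_mem hxP)
        exact pow36_of_embT hF hq2 e Pm i0 x (hH (hPH i0 hxP)) X Y hX hY)
      exact hns i0 (hbot ▸ bot_le)
    · unfold UCls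
      iterate 10 right
      exact ⟨m, t, e, P', hermForm m F q, hm, ht, hq, isUnitaryFormPow_hermForm hF, hP'f,
        by rw [hP'w]; exact hHw⟩
  rcases Nat.lt_or_ge m 2 with hm2 | hm2
  · -- `m ≤ 1`: the `P i` are scalar
    exfalso
    apply hns i0
    intro x hxP
    obtain ⟨X, hX⟩ := hx i0 x hxP
    obtain ⟨c, hc⟩ : ∃ c : F, X = c • (1 : Matrix (Fin m) (Fin m) F) := by
      interval_cases m
      · exact ⟨0, Subsingleton.elim _ _⟩
      · refine ⟨X 0 0, ?_⟩
        ext a b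
        rw [Subsingleton.elim a 0, Subsingleton.elim b 0]
        simp
    rw [hc, embT_smul_one] at hX
    have hc0 : c ≠ 0 := by
      rintro rfl
      rw [zero_smul] at hX
      have := val_mul_inv x
      rw [hX, zero_mul] at this
      exact zero_ne_one this
    exact (mem_scalars_iff x).2 ⟨Units.mk0 c hc0, hX⟩
  obtain rfl : m = 2 := by omega
  obtain ⟨J, hJdet, hJT, hJd, hJ⟩ := Cfsg.Agent.Lib.Helper58.Asch.tensor_two_gram (F := F) t
  set J' : Matrix (Fin n) (Fin n) F := Matrix.reindex e.symm e.symm J with hJ'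
  set Q : Matrix (Fin n) (Fin n) F := ((Pm⁻¹ : GL (Fin n) F) : Matrix (Fin n) (Fin n) F) with hQ
  set G : Matrix (Fin n) (Fin n) F := Qᵀ * J' * Q with hG
  have hQP1 : Q * (Pm : Matrix (Fin n) (Fin n) F) = 1 := val_inv_mul Pm
  have hGdet : IsUnit G.det := by
    rw [hG, Matrix.det_mul, Matrix.det_mul, Matrix.det_transpose, hJ', Matrix.det_reindex_self]
    have hQu : IsUnit Q.det := by
      rw [← Matrix.isUnit_iff_isUnit_det]; exact (Pm⁻¹).isUnit
    exact (hQu.mul hJdet).mul hQu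
  have hsim : ∀ i, ∀ x ∈ P i, ∃ c : F, (x : Matrix (Fin n) (Fin n) F)ᵀ * G *
      (x : Matrix (Fin n) (Fin n) F) = c • G := by
    intro i x hxP
    obtain ⟨X, hX⟩ := hx i x hxP
    refine ⟨X.det, ?_⟩
    set S : Matrix (Fin n) (Fin n) F := Matrix.reindex e.symm e.symm (stdT i X) with hS
    have hSJ : Sᵀ * J' * S = X.det • J' := by
      rw [hS, hJ']
      simp only [Matrix.reindex_apply, Matrix.transpose_submatrix, Matrix.submatrix_mul_equiv]
      rw [hJ i X, Matrix.submatrix_smul]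
      rfl
    have hX' : (x : Matrix (Fin n) (Fin n) F) = (Pm : Matrix (Fin n) (Fin n) F) * S * Q := hX
    have hPQ : (Pm : Matrix (Fin n) (Fin n) F)ᵀ * Qᵀ = 1 := by
      rw [← Matrix.transpose_mul, hQP1, Matrix.transpose_one]
    calc (x : Matrix (Fin n) (Fin n) F)ᵀ * G * (x : Matrix (Fin n) (Fin n) F)
        = Qᵀ * (Sᵀ * (((Pm : Matrix (Fin n) (Fin n) F)ᵀ * Qᵀ) * J' *
            (Q * (Pm : Matrix (Fin n) (Fin n) F))) * S) * Q := by
          rw [hX', hG]
          simp only [Matrix.transpose_mul, Matrix.mul_assoc]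
      _ = Qᵀ * (Sᵀ * J' * S) * Q := by
          rw [hPQ, hQP1, Matrix.one_mul, Matrix.mul_one]
      _ = X.det • G := by
          rw [hSJ, hG, Matrix.mul_smul, Matrix.smul_mul]
  have hiso : ∀ i, P i ≤ isoG G := by
    intro i
    rw [← hperf i, Subgroup.commutator_le]
    intro x hxP y hyP
    obtain ⟨c, hc⟩ := hsim i x hxP
    obtain ⟨d, hd⟩ := hsim i y hyP
    exact commutator_mem_isoG hc hd
  have hfix : ∀ x ∈ (⨆ i, P i), (x : Matrix (Fin n) (Fin n) F)ᵀ * G *
      (x : Matrix (Fin n) (Fin n) F) = G := fun x hxP => (iSup_le hiso) hxP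
  set τ : F →+* F := ((RingEquiv.refl F : F ≃+* F) : F →+* F) with hτ
  have hmap : ∀ M : Matrix (Fin n) (Fin n) F, M.map τ = M := by
    intro M; ext i j; simp [hτ]
  have hbil : IsBilinearForm (gform τ G) :=
    ⟨Cfsg.Agent.Lib.Helper55.Asch.gform_add_left τ G,
      Cfsg.Agent.Lib.Helper55.Asch.gform_smul_left τ G,
      Cfsg.Agent.Lib.Helper55.Asch.gform_add_right τ G,
      fun c v x => by rw [Cfsg.Agent.Lib.Helper55.Asch.gform_smul_right]; rfl⟩
  refine ucls_of_fixes_bilin ((iSup_le hPH).trans hH) hnrm henv (gform τ G) hbil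
    (Cfsg.Agent.Lib.Helper55.Asch.nondeg_of_isUnit_det (RingEquiv.refl F) G hGdet) ?_
  rintro _ ⟨x, hxP, rfl⟩ u v
  rw [Cfsg.Agent.Lib.Helper55.Asch.gform_mulVec, hmap, hfix x hxP]

end Cfsg.Agent.Lib.Helper9.AschU
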