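import Cfsg.Agent.Lib.Helper9.AschU.Base
import Cfsg.Agent.Lib.Helper9.AschU.UC1
import Cfsg.Agent.Lib.Helper9.AschU.UC5
import Cfsg.Agent.Lib.Helper9.AschU.U2C
import Cfsg.Agent.Lib.Helper9.AschU.UK2c
import Cfsg.Agent.Lib.Helper5.AschU.A12
import Cfsg.Agent.Lib.Helper62.AschU.A3
import Cfsg.Agent.Lib.Helper23.AschU.U1
import Cfsg.Agent.Lib.Helper23.AschU.U3
import Cfsg.Agent.Lib.Helper60.AschU.U22
import Cfsg.Agent.Lib.Helper62.AschU.U2A
import Cfsg.Agent.Lib.Helper62.AschU.U2B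
import Cfsg.Agent.Lib.Helper11.AschU.U4
import Cfsg.Agent.Lib.Helper11.AschU.U4s
import Cfsg.Agent.Lib.Helper11.AschU.U7s
import Cfsg.Agent.Lib.Helper70.AschU.U7t
import Cfsg.Agent.Lib.Helper70.AschU.UO
import Cfsg.Agent.Lib.Helper1.AschU.UK1aux
import Cfsg.Agent.Lib.Helper60.AschU.UK2f
import Cfsg.Agent.Lib.Helper60.Asch.G1
import Cfsg.Agent.Lib.Helper60.Asch.G2
import Cfsg.Agent.Lib.Helper60.Asch.K0
import Cfsg.Agent.Lib.Helper12.Asch.K2a

set_option autoImplicit false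

namespace Cfsg.Agent.Lib.Helper9.AschU

open Cfsg Cfsg.Geo Matrix Cfsg.Agent.Lib.Helper13 Cfsg.Agent.Lib.Helper13.Asch
  Cfsg.Agent.Lib.Helper5.SUAsch
open Cfsg.Agent.Lib.Helper58.Asch Cfsg.Agent.Lib.Helper73.Asch Cfsg.Agent.Lib.Helper79.Asch
  Cfsg.Agent.Lib.Helper35.Asch Cfsg.Agent.Lib.Helper55.Asch Cfsg.Agent.Lib.Helper60.Asch
  Cfsg.Agent.Lib.Helper12.Asch
open Cfsg.Agent.Lib.Helper5.AschU Cfsg.Agent.Lib.Helper62.AschU Cfsg.Agent.Lib.Helper23.AschU
  Cfsg.Agent.Lib.Helper60.AschU Cfsg.Agent.Lib.Helper11.AschU Cfsg.Agent.Lib.Helper70.AschU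
  Cfsg.Agent.Lib.Helper1.AschU
open scoped Kronecker MatrixGroups

variable {F : Type*} [Field F] [Fintype F] {n q : ℕ}

/-- the escape alternative that really occurs: the tensor square of the unitary 3-space over the
field with four elements -/
def E23two (n q : ℕ) (H : Subgroup (GL (Fin n) F)) : Prop :=
  q = 2 ∧ ∃ (e : Fin n ≃ (Fin 2 → Fin 3)) (P : GL (Fin n) F),
    IsTensorPowerFormStructure (fun x : F => x ^ q) (hermForm n F q) (hermForm 3 F q) e P ∧
    H ≤ tensorWreathSubgroup 3 2 e P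

theorem E23two.toE23 {H : Subgroup (GL (Fin n) F)} (h : E23two n q H) : E23 n q H := by
  obtain ⟨hq, e, P, h1, h2⟩ := h
  exact ⟨hq, 2, e, P, le_rfl, h1, h2⟩

/-- UG1 -/
theorem uqp_or_class (hF : Fintype.card F = q ^ 2) (hn : 2 ≤ n) (H : Subgroup (GL (Fin n) F))
    (hH : H ≤ GU n F q) :
    (UCls n q H ∨ E23two n q H) ∨ (ActsIrreducibly (matrixSet H) ∧ QP H) := by
  classical
  by_cases hcls : UCls n q H ∨ E23two n q H
  · exact Or.inl hcls
  right
  have hirr : ActsIrreducibly (matrixSet H) := by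
    by_contra hirr
    unfold ActsIrreducibly at hirr
    push Not at hirr
    obtain ⟨W, hW, h0, h1⟩ := hirr
    exact hcls (Or.inl (ucls_of_reducible hF hH W h0 h1 hW))
  refine ⟨hirr, ?_⟩
  intro N hNH hnrm
  have : Nonempty (Fin n) := ⟨⟨0, by omega⟩⟩
  obtain ⟨A, hAdef⟩ : ∃ A, A = env N := ⟨_, rfl⟩
  have hA : H ≤ subalgebraNormalizer A := hAdef ▸ nrm_env hnrm
  have hAs : StarClosed q A := hAdef ▸ starClosed_env hF (hNH.trans hH)
  obtain ⟨Z, hZdef⟩ : ∃ Z, Z = A ⊓ Subalgebra.centralizer F (A : Set (Matrix (Fin n) (Fin n) F)) :=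
    ⟨_, rfl⟩
  have hZ : H ≤ subalgebraNormalizer Z := fun g hg => hZdef ▸ normalizer_center (hA hg)
  have hZs : StarClosed q Z := hZdef ▸ starClosed_center hF hAs
  have hZc : ∀ x ∈ Z, ∀ y ∈ Z, x * y = y * x := by
    intro x hx y hy
    rw [hZdef] at hx hy
    have h1 := (Algebra.mem_inf.1 hx).1
    have h2 := (Algebra.mem_inf.1 hy).2
    exact (Subalgebra.mem_centralizer_iff F).1 h2 x h1
  rcases ucomm_dichotomy hF hH hirr Z hZ hZc hZs with hc | hinv
  · exact (hcls (Or.inl hc)).elim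
  by_cases hne : ∃ x ∈ Z, ∀ c : F, x ≠ c • 1
  · obtain ⟨r, K', hr, hro, hK', hK's, hHK'⟩ := uprime_subfield hF H Z hZ hZc hinv hne hZs
    exact (hcls (Or.inl (Or.inr (Or.inr (Or.inr (Or.inr (Or.inr (Or.inr (Or.inr (Or.inr (Or.inl
      ⟨r, K', hr, hro, hK', hK's.isAdjointClosedFor hF, hHK'⟩))))))))))).elim
  push Not at hne
  have hc : ∀ z ∈ A, (∀ a ∈ A, z * a = a * z) → ∃ c : F, z = c • 1 := by
    intro z hz hza
    apply hne z
    rw [hZdef]
    refine Algebra.mem_inf.2 ⟨hz, ?_⟩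
    rw [Subalgebra.mem_centralizer_iff]
    intro a ha
    exact (hza a ha).symm
  have hss : SS A := ss_of_irr H hirr A hA
  obtain ⟨a, ⟨ψ⟩⟩ := exists_algEquiv_matrix A hss hc
  obtain ⟨b, e, P, hψ⟩ := matrix_rep_std (A.val.comp ψ.toAlgHom)
  have hmemA : ∀ x, x ∈ A ↔ ∃ X, x = embL e P X := by
    intro x
    constructor
    · intro hx
      refine ⟨ψ.symm ⟨x, hx⟩, ?_⟩
      rw [← hψ]
      simp
    · rintro ⟨X, rfl⟩
      rw [← hψ]
      exact (ψ X).2
  have hcard : n = a * b := by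
    have := Fintype.card_congr e
    simpa using this
  by_cases ha1 : a = 1
  · left
    subst ha1
    intro x hx
    have hxA : (x : Matrix (Fin n) (Fin n) F) ∈ A := by
      rw [hAdef]
      exact Algebra.subset_adjoin ⟨x, hx, rfl⟩
    obtain ⟨X, hX⟩ : ∃ X, X = ψ.symm ⟨x.1, hxA⟩ := ⟨_, rfl⟩
    have hX1 : X = (X 0 0) • (1 : Matrix (Fin 1) (Fin 1) F) := by
      ext i j
      have hi : i = 0 := Subsingleton.elim _ _
      have hj : j = 0 := Subsingleton.elim _ _
      subst hi; subst hj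
      simp
    have h1 : (⟨x.1, hxA⟩ : A) = (X 0 0) • (1 : A) := by
      have h2 := congrArg ψ hX1
      rw [map_smul, map_one, hX, AlgEquiv.apply_symm_apply, ← hX] at h2
      exact h2
    have hx1 : x.1 = (X 0 0) • (1 : Matrix (Fin n) (Fin n) F) := congrArg Subtype.val h1
    rw [mem_scalars_iff]
    have hne0 : X 0 0 ≠ 0 := by
      intro h0
      rw [h0, zero_smul] at hx1
      exact x.ne_zero hx1
    exact ⟨Units.mk0 _ hne0, hx1⟩
  by_cases hb1 : b = 1
  · right
    rw [← hAdef]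
    have h1 : Module.finrank F A = a * a := by
      rw [← ψ.toLinearEquiv.finrank_eq]
      simp [Module.finrank_matrix]
    have h2 : Module.finrank F (Matrix (Fin n) (Fin n) F) = n * n := by
      simp [Module.finrank_matrix]
    apply Algebra.toSubmodule_eq_top.1
    apply Submodule.eq_top_of_finrank_eq
    rw [Subalgebra.finrank_toSubmodule, h1, h2, hcard, hb1]
    ring
  have ha2 : 2 ≤ a := by
    rcases Nat.lt_or_ge a 2 with h | h
    · interval_cases a
      · omega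
      · omega
    · exact h
  have hb2 : 2 ≤ b := by
    rcases Nat.lt_or_ge b 2 with h | h
    · interval_cases b
      · omega
      · omega
    · exact h
  have hHT : H ≤ tensorProductSubgroup a b e P := by
    intro h hh
    apply mem_tensorProductSubgroup
    intro X
    have h1 : embL e P X ∈ A := (hmemA _).2 ⟨X, rfl⟩
    have h2 := (hA hh _).1 h1
    exact (hmemA _).1 h2
  obtain ⟨f₁, f₂, hf₁, hf₂, hT⟩ := tensor_form hF (by omega) (by omega) e P
    (fun X => (hmemA _).1 (hAs _ ((hmemA _).2 ⟨X, rfl⟩)))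
  exfalso
  rcases lt_trichotomy a b with hlt | heq | hlt
  · exact hcls (Or.inl (Or.inr (Or.inr (Or.inr (Or.inr (Or.inr (Or.inr (Or.inr (Or.inr (Or.inr
      (Or.inl ⟨a, b, e, P, f₁, f₂, ha2, hlt, hf₁, hf₂, hT, hHT⟩)))))))))))
  · subst heq
    by_cases h3 : 3 ≤ a
    · obtain ⟨P', hle, hT'⟩ := square_form hF e P f₁ f₂ hf₁ hf₂ hT
      by_cases hx : q = 2 ∧ a = 3
      · obtain ⟨hq2, rfl⟩ := hx
        exact hcls (Or.inr ⟨hq2, _, P', hT', hHT.trans hle⟩)
      · exact hcls (Or.inl (Or.inr (Or.inr (Or.inr (Or.inr (Or.inr (Or.inr (Or.inr (Or.inr (Or.inr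
          (Or.inr ⟨a, 2, _, P', _, h3, le_rfl, hx, isUnitaryFormPow_hermForm hF, hT',
            hHT.trans hle⟩)))))))))))
    · obtain rfl : a = 2 := by omega
      exact hcls (Or.inl (ucls_two_two hF hH e P f₁ f₂ hf₁ hf₂ hT hHT))
  · rw [tensor_swap] at hHT
    exact hcls (Or.inl (Or.inr (Or.inr (Or.inr (Or.inr (Or.inr (Or.inr (Or.inr (Or.inr (Or.inr
      (Or.inl ⟨b, a, _, P, f₂, f₁, hb2, hlt, hf₂, hf₁, tensor_form_swap e P f₁ f₂ hT,
        hHT⟩)))))))))))

/-- scalars and `GU` lie in the similarity group -/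
theorem sup_scalars_le_similarity (hF : Fintype.card F = q ^ 2) {N : Subgroup (GL (Fin n) F)}
    (hN : N ≤ GU n F q) : N ⊔ scalars (Fin n) F ≤ similarityGroup (hermForm n F q) := by
  refine sup_le ?_ ?_
  · intro x hx
    exact ⟨1, fun u v => by rw [Units.val_one, one_mul]; exact hN hx u v⟩
  · intro x hx
    obtain ⟨c, hc⟩ := (mem_scalars_iff x).1 hx
    refine ⟨c * c ^ q, fun u v => ?_⟩
    rw [hc, smul_mulVec, smul_mulVec, one_mulVec, one_mulVec, hermForm_smul_left,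
      hermForm_smul_right]
    push_cast
    ring

/-- the raw main theorem, sharp form -/
theorem main_raw_two (hF : Fintype.card F = q ^ 2) (hn : 2 ≤ n) (H : Subgroup (GL (Fin n) F))
    (hH : H ≤ GU n F q) : (UCls n q H ∨ E23two n q H) ∨ InUnitaryResidualClass H := by
  rcases uqp_or_class hF hn H hH with h | ⟨hirr, hQP⟩
  · exact Or.inl h
  by_cases hsc : H ≤ scalars (Fin n) F
  · exfalso
    -- scalar groups are reducible in dimension at least two
    have hW : ∀ s ∈ matrixSet H, (Submodule.span F {(Pi.single ⟨0, by omega⟩ 1 : Fin n → F)}).map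
        (Matrix.toLin' s) ≤ Submodule.span F {(Pi.single ⟨0, by omega⟩ 1 : Fin n → F)} := by
      rintro _ ⟨g, hg, rfl⟩
      obtain ⟨c, hc⟩ := (mem_scalars_iff g).1 (hsc hg)
      rintro _ ⟨w, hw, rfl⟩
      show Matrix.toLin' (g : Matrix (Fin n) (Fin n) F) w ∈ _
      rw [Matrix.toLin'_apply, hc, smul_mulVec, one_mulVec]
      exact Submodule.smul_mem _ _ hw
    rcases hirr _ hW with h | h
    · have : (Pi.single ⟨0, by omega⟩ 1 : Fin n → F) = 0 := by
        have h1 := Submodule.mem_span_singleton_self (R := F)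
          (Pi.single ⟨0, by omega⟩ 1 : Fin n → F)
        rw [h] at h1
        simpa using h1
      have h2 := congrFun this ⟨0, by omega⟩
      simp at h2
    · have h1 : (Pi.single ⟨1, by omega⟩ 1 : Fin n → F) ∈
          Submodule.span F {(Pi.single ⟨0, by omega⟩ 1 : Fin n → F)} := by rw [h]; trivial
      obtain ⟨c, hc⟩ := Submodule.mem_span_singleton.1 h1
      have h2 := congrFun hc ⟨1, by omega⟩
      simp at h2
  obtain ⟨N, hN⟩ := exists_minNormal H hsc
  have henv : env N = ⊤ := (hQP N hN.le hN.nrm).resolve_left hN.not_sc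
  by_cases hab : ⁅N, N⁆ ≤ scalars (Fin n) F
  · obtain ⟨r, hS⟩ := sympData_of_abelian hN henv hab
    obtain ⟨R, hR, hRN⟩ := exists_RData_le (by simpa using hn) hS
    exact Or.inl (Or.inl (uc6_of_RData hF hn hH hR
      (hRN.trans (sup_scalars_le_similarity hF (hN.le.trans hH)))))
  · by_cases hs : ∀ L : Subgroup (GL (Fin n) F), H ⊓ scalars (Fin n) F ≤ L → L ≤ N → Nrm N L →
      L = H ⊓ scalars (Fin n) F ∨ L = N
    · rcases uresidual_of_simple_aux hH
        (fun N hNU hN henv b hb hnd hfix => ucls_of_fixes_bilin hF hn hH hNU hN henv b hb hnd hfix)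
        (fun N hN henv F0 h1 h2 h3 => ucls_of_realisable hF hn hH hN henv F0 h1 h2 h3)
        hQP hN hab hs with h | h
      · exact Or.inl (Or.inl h)
      · exact Or.inr h
    · obtain ⟨t, P, ht, h1, h2, h3, h4, h5, h6⟩ := exists_family hN hab hs
      exact Or.inl (Or.inl (utensor_of_family_strong hF hn hH hQP
        (fun hNU hN henv b hb hnd hfix => ucls_of_fixes_bilin hF hn hH hNU hN henv b hb hnd hfix)
        ht P h1 h2 h3 h4 h5 h6))

/-- the raw main theorem -/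
theorem main_raw (hF : Fintype.card F = q ^ 2) (hn : 2 ≤ n) (H : Subgroup (GL (Fin n) F))
    (hH : H ≤ GU n F q) : (UCls n q H ∨ E23 n q H) ∨ InUnitaryResidualClass H := by
  rcases main_raw_two hF hn H hH with (h | h) | h
  · exact Or.inl (Or.inl h)
  · exact Or.inl (Or.inr h.toE23)
  · exact Or.inr h

end Cfsg.Agent.Lib.Helper9.AschU
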